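import Cfsg.Agent.H613.KS.Props
import Cfsg.Agent.H640.KKL.Canon
import Cfsg.Agent.H649.ConjPair

/-!
# S4577 (A3): the canonical character of `C_G(D)`, inertial quotient of order divisible by 5 (helper640)

* `five_of`: a 5-element normalising `D ≅ 2^4` and not centralizing it acts irreducibly on `D`;
* `stab_of_fix`: an element which normalises `K` and fixes a character of the block `c` of `K` stabilises `c`;
* `A3c`, `A3`: for a block `B` with defect group `D ≅ 2^4` and a block `c` of `C_G(D)` inducing `B` with `5 ∣ |T : C|`: the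
  canonical character of `c` and a 5-element fixing it; the 2-elements of `N_G(D)` which fix it centralise `D`.
-/

set_option autoImplicit false

open Cfsg Cfsg.Agent.H613.KS

universe u

namespace Cfsg.Agent.H640.KS

open Cfsg.Agent.H644 Cfsg.Agent.H686.PairCrit

/-- the fixed points of a 5-element on an invariant subgroup `A` -/
theorem card_mod_five {G : Type*} [Group G] {y : G} {m : ℕ} (hm : orderOf y = 5 ^ m) {A : Subgroup G} [Finite A]
    (hA : ∀ a : G, y * a * y⁻¹ ∈ A ↔ a ∈ A) :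
    Nat.card A ≡ Nat.card (A ⊓ Subgroup.centralizer ({y} : Set G) : Subgroup G) [MOD 5] := by
  have : Fact (Nat.Prime 5) := ⟨by norm_num⟩
  have hyN : y ∈ Subgroup.normalizer (A : Set G) := Subgroup.mem_normalizer_iff.2 fun a => (hA a).symm
  let act : MulAction (Subgroup.zpowers y) A :=
    { smul := fun g a => ⟨(g : G) * a * (g : G)⁻¹, by
        obtain ⟨k, hk⟩ := Subgroup.mem_zpowers_iff.1 g.2
        have h1 : (g : G) ∈ Subgroup.normalizer (A : Set G) := by
          rw [← hk]; exact zpow_mem hyN k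
        exact (Subgroup.mem_normalizer_iff.1 h1 a).1 a.2⟩
      one_smul := fun a => Subtype.ext (by
        show ((1 : Subgroup.zpowers y) : G) * a * ((1 : Subgroup.zpowers y) : G)⁻¹ = a
        rw [Subgroup.coe_one, one_mul, inv_one, mul_one])
      mul_smul := fun g h a => Subtype.ext (by
        show ((g * h : Subgroup.zpowers y) : G) * a * ((g * h : Subgroup.zpowers y) : G)⁻¹ =
          (g : G) * ((h : G) * a * (h : G)⁻¹) * (g : G)⁻¹
        rw [Subgroup.coe_mul]
        group) }
  have hsm : ∀ (g : Subgroup.zpowers y) (a : A), ((g • a : A) : G) = (g : G) * a * (g : G)⁻¹ := fun _ _ => rfl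
  have hp : IsPGroup 5 (Subgroup.zpowers y) := IsPGroup.of_card (n := m) (by rw [Nat.card_zpowers, hm])
  have h1 := hp.card_modEq_card_fixedPoints A
  have h2 : Nat.card (MulAction.fixedPoints (Subgroup.zpowers y) A) =
      Nat.card (A ⊓ Subgroup.centralizer ({y} : Set G) : Subgroup G) := by
    refine Nat.card_congr
      { toFun := fun a => ⟨((a : A) : G), Subgroup.mem_inf.2 ⟨(a : A).2, ?_⟩⟩
        invFun := fun a => ⟨⟨a, (Subgroup.mem_inf.1 a.2).1⟩, ?_⟩
        left_inv := fun _ => rfl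
        right_inv := fun _ => rfl }
    · have h3 := a.2 ⟨y, Subgroup.mem_zpowers y⟩
      have h4 : y * ((a : A) : G) * y⁻¹ = (a : A) := by
        have := congrArg (Subtype.val) h3
        exact this
      rw [Subgroup.mem_centralizer_singleton_iff]
      rw [mul_inv_eq_iff_eq_mul] at h4
      exact h4.symm
    · intro g
      apply Subtype.ext
      rw [hsm]
      have h3 : (a : G) * y = y * a := Subgroup.mem_centralizer_singleton_iff.1 (Subgroup.mem_inf.1 a.2).2
      obtain ⟨k, hk⟩ := Subgroup.mem_zpowers_iff.1 g.2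
      rw [← hk]
      have h4 : Commute (y ^ k) (a : G) := (Commute.zpow_left (show Commute y (a : G) from h3.symm) k)
      rw [h4.eq, mul_inv_cancel_right]
  rwa [h2] at h1

theorem card_cases {n : ℕ} (h : n ∣ 16) : n = 1 ∨ n = 2 ∨ n = 4 ∨ n = 8 ∨ n = 16 := by
  have h1 : n ∈ Nat.divisors 16 := Nat.mem_divisors.2 ⟨h, by norm_num⟩
  have h2 : Nat.divisors 16 = {1, 2, 4, 8, 16} := by decide +kernel
  rw [h2] at h1
  simpa using h1

/-- a 5-element normalising `D ≅ 2^4` and not centralizing it acts irreducibly on `D` -/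
theorem five_of {G : Type*} [Group G] {D : Subgroup G} (h16 : E16 D) {y : G}
    (hn : y ∈ Subgroup.normalizer (D : Set G)) {m : ℕ} (hm : orderOf y = 5 ^ m)
    (hc : y ∉ Subgroup.centralizer (D : Set G)) : Five D y := by
  have hfin : Finite D := Nat.finite_of_card_ne_zero (by rw [h16.card]; norm_num)
  have hyD : ∀ d : G, y * d * y⁻¹ ∈ D ↔ d ∈ D := fun d => (Subgroup.mem_normalizer_iff.1 hn d).symm
  have hdvd : ∀ B : Subgroup G, B ≤ D → Nat.card B ∣ 16 := fun B hB => by
    rw [← h16.card]; exact Subgroup.card_dvd_of_le hB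
  -- no fixed points
  have hF : D ⊓ Subgroup.centralizer ({y} : Set G) = ⊥ := by
    have h1 := card_mod_five hm (A := D) hyD
    rw [h16.card] at h1
    have h2 := card_cases (hdvd (D ⊓ Subgroup.centralizer ({y} : Set G)) inf_le_left)
    have h3 : Nat.card (D ⊓ Subgroup.centralizer ({y} : Set G) : Subgroup G) ≠ 16 := by
      intro h4
      apply hc
      have h5 : D ⊓ Subgroup.centralizer ({y} : Set G) = D :=
        Subgroup.eq_of_le_of_card_ge inf_le_left (by rw [h4, h16.card])
      rw [Subgroup.mem_centralizer_iff]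
      intro d hd
      have h6 : d ∈ D ⊓ Subgroup.centralizer ({y} : Set G) := by rw [h5]; exact hd
      exact Subgroup.mem_centralizer_singleton_iff.1 (Subgroup.mem_inf.1 h6).2
    unfold Nat.ModEq at h1
    rcases h2 with h2 | h2 | h2 | h2 | h2
    · exact Subgroup.card_eq_one.1 h2
    · rw [h2] at h1; omega
    · rw [h2] at h1; omega
    · rw [h2] at h1; omega
    · exact absurd h2 h3
  refine ⟨hyD, ⟨m, hm⟩, fun A hAD hA => ?_⟩
  have hfinA : Finite A := Finite.of_injective _ (Subgroup.inclusion_injective hAD)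
  -- `A` is invariant under `y⁻¹`
  have hA' : ∀ a : G, y * a * y⁻¹ ∈ A ↔ a ∈ A := by
    have hmap : A.map (MulAut.conj y).toMonoidHom = A := by
      refine Subgroup.eq_of_le_of_card_ge ?_ ?_
      · rintro _ ⟨a, ha, rfl⟩
        exact hA a ha
      · rw [Subgroup.card_map_of_injective (f := (MulAut.conj y).toMonoidHom) (MulAut.conj y).injective]
    intro a
    refine ⟨fun h => ?_, hA a⟩
    rw [← hmap] at h
    obtain ⟨b, hb, hab⟩ := h
    have h2 : y * b * y⁻¹ = y * a * y⁻¹ := hab
    have h3 : b = a := mul_left_cancel (mul_right_cancel h2)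
    rwa [← h3]
  have h1 := card_mod_five hm (A := A) hA'
  have h2 : A ⊓ Subgroup.centralizer ({y} : Set G) = ⊥ := by
    rw [eq_bot_iff, ← hF]
    exact inf_le_inf_right _ hAD
  rw [h2, Subgroup.card_bot] at h1
  unfold Nat.ModEq at h1
  rcases card_cases (hdvd A hAD) with h3 | h3 | h3 | h3 | h3
  · exact Or.inl (Subgroup.card_eq_one.1 h3)
  · rw [h3] at h1; omega
  · rw [h3] at h1; omega
  · rw [h3] at h1; omega
  · exact Or.inr (Subgroup.eq_of_le_of_card_ge hAD (by rw [h3, h16.card]))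

variable {G : Type u} [Group G] [Finite G]

omit [Finite G] in
/-- an element fixing a character of a block stabilises the block -/
theorem stab_of_fix {M : Ideal AlgInt} [M.IsPrime] {K : Subgroup G} {c : Set (IrrCharacter K)} (hc : IsPBlock M c)
    {θ : IrrCharacter K} (hθ : θ ∈ c) {g : G} (hg : g ∈ Subgroup.normalizer (K : Set G))
    (hfix : ∀ e e' : K, (e' : G) = g * e * g⁻¹ → (θ : K → ℂ) e' = (θ : K → ℂ) e) : StabilizesBlock K c g := by
  rw [Cfsg.Agent.H649.stabilizesBlock_iff hc]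
  refine ⟨hg, ?_⟩
  have h1 : Cfsg.Agent.H649.irrMap (Cfsg.Agent.H649.conjAut K g hg) θ = θ :=
    (Cfsg.Agent.H649.isConjCharOf_iff K hg θ θ).1 fun e e' he => hfix e e' he
  refine Cfsg.Agent.Blocks.Basic.isPBlock_eq_of_mem (Cfsg.Agent.H649.isPBlock_blkMap hc) hc (χ := θ) ?_ hθ
  rw [← h1]
  exact Cfsg.Agent.H649.irrMap_mem_blkMap.2 hθ

local notation "Cn(" Q ")" => Subgroup.centralizer ((Q : Subgroup G) : Set G)

omit [Finite G] in
/-- a 2-element of `T` lies in `C`, if `C ≤ T` is normalised by `T` and `|T : C|` is odd -/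
theorem mem_of_two {C T : Subgroup G} (hn : ∀ t ∈ T, ∀ x ∈ C, t * x * t⁻¹ ∈ C) (hodd : ¬ 2 ∣ C.relIndex T) {g : G}
    (hg : g ∈ T) (h2 : ∃ k : ℕ, orderOf g = 2 ^ k) : g ∈ C := by
  have hN : (C.subgroupOf T).Normal := ⟨by
    rintro ⟨x, hx⟩ hxC ⟨t, ht⟩
    exact hn t ht x hxC⟩
  obtain ⟨k, hk⟩ := h2
  have h1 : ((⟨g, hg⟩ : T) : T ⧸ C.subgroupOf T) ^ (2 ^ k) = 1 := by
    rw [← QuotientGroup.mk_pow]
    have h3 : (⟨g, hg⟩ : T) ^ (2 ^ k) = 1 := Subtype.ext (by
      show g ^ (2 ^ k) = 1
      rw [← hk]; exact pow_orderOf_eq_one g)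
    rw [h3]; rfl
  have h2 : orderOf ((⟨g, hg⟩ : T) : T ⧸ C.subgroupOf T) ∣ 2 ^ k := orderOf_dvd_of_pow_eq_one h1
  have h3 : orderOf ((⟨g, hg⟩ : T) : T ⧸ C.subgroupOf T) ∣ C.relIndex T := orderOf_dvd_natCard _
  have h4 : Nat.Coprime (2 ^ k) (C.relIndex T) :=
    Nat.Coprime.pow_left k ((Nat.Prime.coprime_iff_not_dvd Nat.prime_two).2 hodd)
  have h5 : orderOf ((⟨g, hg⟩ : T) : T ⧸ C.subgroupOf T) = 1 := Nat.eq_one_of_dvd_coprimes h4 h2 h3
  rw [orderOf_eq_one_iff, QuotientGroup.eq_one_iff] at h5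
  exact h5

/-- **(A3)** with `θ ∈ c` -/
theorem A3c : Props.PA3c.{u} := by
  intro G _ _ M hM B hB D hD h16 c hc T hT h5
  have hMp : M.IsPrime := hM.2.1.isPrime
  have : Fact (Nat.Prime 2) := ⟨Nat.prime_two⟩
  have hmax := Cfsg.Agent.H641.isMaximal_of_induced hM hD hc
  obtain ⟨θ, hθc, hker, hdeg, -⟩ := crit_mp hM hmax
  have hDC : D ≤ Subgroup.centralizer (D : Set G) := by
    intro x hx
    rw [Subgroup.mem_centralizer_iff]
    intro z hz
    have h1 : (x * z) * (x * z) = 1 := h16.inv _ (D.mul_mem hx hz)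
    have h2 : x * x = 1 := h16.inv x hx
    have h3 : z * z = 1 := h16.inv z hz
    calc z * x = (x * x) * (z * x) * (z * z) := by rw [h2, h3, one_mul, mul_one]
      _ = x * ((x * z) * (x * z)) * z := by group
      _ = x * z := by rw [h1, mul_one]
  have hinf : D ⊓ Subgroup.centralizer (D : Set G) = D := inf_eq_left.2 hDC
  rw [hinf, h16.card] at hdeg
  have h24 : (16 : ℕ).factorization 2 = 4 := by
    rw [show (16 : ℕ) = 2 ^ 4 by norm_num, Nat.Prime.factorization_pow Nat.prime_two, Finsupp.single_eq_same]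
  rw [h24] at hdeg
  -- the block `c` has defect group `D`
  have hDZ : D.subgroupOf (Subgroup.centralizer (D : Set G)) ≤ Subgroup.center (Subgroup.centralizer (D : Set G)) :=
    subgroupOf_le_center D
  have hDp : IsPGroup 2 (D.subgroupOf (Subgroup.centralizer (D : Set G))) :=
    hmax.1.1.1.comap_of_injective (Subgroup.centralizer (D : Set G)).subtype
      (Subgroup.centralizer (D : Set G)).subtype_injective
  have hidx := card_index (p := 2) D
  rw [card_subgroupOf_eq, hinf, h16.card, h24] at hidx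
  have hdeg' : (charDegree (θ : (Subgroup.centralizer (D : Set G)) → ℂ)).factorization 2 =
      (D.subgroupOf (Subgroup.centralizer (D : Set G))).index.factorization 2 := by
    have h1 : 4 + (D.subgroupOf (Subgroup.centralizer (D : Set G))).index.factorization 2 =
      (Nat.card (Subgroup.centralizer (D : Set G))).factorization 2 := hidx
    omega
  have hdef := (S0969.result 2 M hM (D.subgroupOf (Subgroup.centralizer (D : Set G))) hDp hDZ θ hdeg').1
  have hbl : blockOf M (θ : (Subgroup.centralizer (D : Set G)) → ℂ) = c :=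
    (Cfsg.Agent.Blocks.Basic.isPBlock_eq_blockOf hc.1 hθc).symm
  rw [hbl] at hdef
  have hGD : D.subgroupOf (Subgroup.centralizer (D : Set G)) ⊔
      Subgroup.centralizer (D.subgroupOf (Subgroup.centralizer (D : Set G)) :
        Set (Subgroup.centralizer (D : Set G))) = ⊤ := by
    rw [centralizer_eq_top_of_le_center hDZ, sup_top_eq]
  obtain ⟨⟨θ0, -, huniq⟩, -, -⟩ := S0968.result 2 M hM _ hDp hGD c hc.1 hdef
  have hθ0 : θ = θ0 := huniq θ ⟨hθc, fun z hz => hker z hz⟩
  subst hθ0
  refine ⟨θ, hθc, fun d e hd => Cfsg.Agent.H640.KKL.apply_mul_of_ker θ.2 (hker d hd) e, hdeg, ?_, ?_⟩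
  · -- the element of 5-power order
    obtain ⟨y, ⟨m, hm⟩, hyC⟩ : ∃ y : T, (∃ k : ℕ, orderOf y = 5 ^ k) ∧
        y ∉ (Subgroup.centralizer (D : Set G)).subgroupOf T := by
      by_contra hcon
      push Not at hcon
      exact not_dvd_index (p := 5) (by norm_num) ((Subgroup.centralizer (D : Set G)).subgroupOf T) (fun x hx => by
        obtain ⟨k, hk⟩ := hx
        exact hcon x ⟨k, hk⟩) h5
    obtain ⟨hyN, hyst⟩ := (hT y).1 y.2
    refine ⟨y, five_of h16 hyN (m := m) (by rw [Subgroup.orderOf_coe]; exact hm) hyC, fun e e' he => ?_⟩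
    obtain ⟨θ', hθ', hconj⟩ := hyst.2 θ hθc
    have h1 : θ' = θ := huniq θ' ⟨hθ', fun z hz => by
      have hz' : ((z : (Subgroup.centralizer (D : Set G))) : G) ∈ D := hz
      have h2 : (y : G)⁻¹ * z * y ∈ D := by
        have := (Subgroup.mem_normalizer_iff.1 (inv_mem hyN) (z : G)).1 hz'
        rwa [inv_inv] at this
      have h3 := hconj ⟨(y : G)⁻¹ * z * y, hDC h2⟩ z (by
        show (z : G) = y * ((y : G)⁻¹ * z * y) * (y : G)⁻¹
        group)
      have h4 := hconj 1 1 (by simp)
      rw [h3, h4]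
      exact hker _ h2⟩
    have h2 := hconj e e' he
    rwa [h1] at h2
  · -- the 2-elements fixing `θ`
    intro g hgD hg2 hfix d hd
    have hgN : g ∈ Subgroup.normalizer (D : Set G) := Subgroup.mem_normalizer_iff.2 fun z => (hgD z).symm
    have hgC := Cfsg.Agent.H649.mem_normalizer_centralizer hgN
    have hgT : g ∈ T := (hT g).2 ⟨hgN, stab_of_fix hc.1 hθc hgC hfix⟩
    have hodd := Cfsg.Agent.H641.not_dvd_relIndex hM hmax
    rw [sup_eq_right.2 hDC, ← Cfsg.Agent.H641.eq_pairStab hM hc.1 hT] at hodd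
    have hTN : ∀ t ∈ T, ∀ x ∈ Subgroup.centralizer (D : Set G), t * x * t⁻¹ ∈ Subgroup.centralizer (D : Set G) := by
      intro t ht x hx
      have h1 := Cfsg.Agent.H649.mem_normalizer_centralizer ((hT t).1 ht).1
      exact (Subgroup.mem_normalizer_iff.1 h1 x).1 hx
    have h1 := mem_of_two hTN hodd hgT hg2
    exact ((Subgroup.mem_centralizer_iff.1 h1) d hd).symm

/-- **(A3)** -/
theorem A3 : Props.PA3.{u} := by
  intro G _ _ M hM B hB D hD h16 c hc T hT h5
  obtain ⟨θ, -, h⟩ := A3c hM hB hD h16 c hc T hT h5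
  exact ⟨θ, h⟩

end Cfsg.Agent.H640.KS
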